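import Cfsg.Agent.H737.EPO.OwnB

/-!
# S5745 / S3499, OWN characteristic: only one type of parabolic two-point stabilisers (helper869)

* `false_of_le` : a vector of `P` fixed by a smaller `P₁` of a `PanelB` contradicts CLAIM C for `P₁`;
* `one_type` : two two-point stabilisers `M₁`, `M₂` above the Sylow subgroup `R` of `H` whose types are `L₁`, `L₂`
  are equal if `K = L₁ᶜ ∪ L₂ᶜ` is not everything.
-/

set_option autoImplicit false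
set_option linter.unusedSectionVars false

namespace Cfsg.Agent.H869.EPO

open Cfsg.Agent.H284 Cfsg.Agent.H209.EPX Cfsg.Agent.H737.EPO

section Trick

variable {G : Type*} [Group G] {H R P D W P₁ D₁ M : Subgroup G} {p : ℕ}

/-- `D₁ ⊔ ⟨w⟩` as vectors for a smaller parabolic subgroup fixing the vector `w D`. -/
theorem exists_cyc [Finite G] (v : VecB H P D W p) (hPH : P ≤ H)
    (hP₁ : P₁ ≤ P) (hDD₁ : D ≤ D₁) (hD₁P₁ : D₁ ≤ P₁) (hD₁ : ∀ g ∈ P₁, ∀ d ∈ D₁, g * d * g⁻¹ ∈ D₁)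
    {w : G} (hw : w ∈ W) (hwP : P₁ ≤ cj w H) (hwD : w ∉ D) :
    ∃ W₁ : Subgroup G, VecB H P₁ D₁ W₁ p ∧ w ∈ W₁ ∧ w ∉ D₁ := by
  have hwH := v.notMem_H hw hwD
  have hfix : ∀ g ∈ P₁, w⁻¹ * (g * w * g⁻¹) ∈ D := fun g hg => (v.stab_iff hPH hw (hP₁ hg)).2 (hwP hg)
  -- `w` normalises `D₁`
  have hnD : ∀ d ∈ D₁, w * d * w⁻¹ ∈ D₁ := by
    intro d hd
    have h1 := hfix d (hD₁P₁ hd)
    have h2 := v.WD w hw _ h1
    have e : w * d * w⁻¹ = (w * (w⁻¹ * (d * w * d⁻¹)) * w⁻¹)⁻¹ * d := by group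
    rw [e]
    exact D₁.mul_mem (D₁.inv_mem (hDD₁ h2)) hd
  have hnD' : ∀ d ∈ D₁, w⁻¹ * d * w ∈ D₁ := by
    intro d hd
    have h1 : cj w D₁ = D₁ := by
      apply Subgroup.eq_of_le_of_card_ge
      · rintro _ ⟨k, hk, rfl⟩
        exact hnD k hk
      · rw [card_cj]
    rw [← h1, mem_cj] at hd
    exact hd
  have hnZ : ∀ x ∈ Subgroup.zpowers w, ∀ d ∈ D₁, x * d * x⁻¹ ∈ D₁ := by
    intro x hx
    have h1 : w ∈ Subgroup.normalizer (D₁ : Set G) := by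
      rw [Subgroup.mem_normalizer_iff]
      intro d
      refine ⟨hnD d, fun hd => ?_⟩
      have := hnD' _ hd
      have e : w⁻¹ * (w * d * w⁻¹) * w = d := by group
      rwa [e] at this
    have h2 : x ∈ Subgroup.normalizer (D₁ : Set G) := (Subgroup.zpowers_le.2 h1) hx
    exact fun d hd => (Subgroup.mem_normalizer_iff.1 h2 d).1 hd
  have hP₁H : P₁ ≤ H := hP₁.trans hPH
  -- elements of `W₁`
  let W₁ : Subgroup G := 
    { carrier := {x | ∃ k : ℤ, ∃ d ∈ D₁, x = w ^ k * d}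
      one_mem' := ⟨0, 1, one_mem _, by rw [zpow_zero, one_mul]⟩
      mul_mem' := by
        rintro _ _ ⟨k, d, hd, rfl⟩ ⟨l, d', hd', rfl⟩
        refine ⟨k + l, (w ^ l)⁻¹ * d * w ^ l * d', D₁.mul_mem ?_ hd', by group⟩
        have := hnZ (w ^ l)⁻¹ (inv_mem (Subgroup.zpow_mem_zpowers w l)) d hd
        rwa [inv_inv] at this
      inv_mem' := by
        rintro _ ⟨k, d, hd, rfl⟩
        refine ⟨-k, w ^ k * d⁻¹ * (w ^ k)⁻¹, hnZ _ (Subgroup.zpow_mem_zpowers w k) _ (D₁.inv_mem hd), by group⟩ }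
  have hwk : ∀ k : ℤ, w ^ k ∈ W := fun k => W.zpow_mem hw k
  -- commutators of `g ∈ P₁` and powers of `w` are in `D`
  have hgk : ∀ g ∈ P₁, ∀ k : ℤ, (w ^ k)⁻¹ * (g * w ^ k * g⁻¹) ∈ D := by
    intro g hg k
    have hnDP : ∀ x ∈ W, ∀ d ∈ D, x * d * x⁻¹ ∈ D := v.WD
    -- the set of `x ∈ W` with `x⁻¹ (g x g⁻¹) ∈ D` is a subgroup
    let F : Subgroup G :=
      { carrier := {x | x ∈ W ∧ x⁻¹ * (g * x * g⁻¹) ∈ D}
        one_mem' := ⟨one_mem _, by simp⟩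
        mul_mem' := by
          rintro a b ⟨h1, h2⟩ ⟨h3, h4⟩
          exact ⟨W.mul_mem h1 h3, v.fix_mul h3 h2 h4⟩
        inv_mem' := by
          rintro a ⟨h1, h2⟩
          exact ⟨W.inv_mem h1, v.fix_inv h1 h2⟩ }
    have h1 : w ∈ F := ⟨hw, hfix g hg⟩
    exact (F.zpow_mem h1 k).2
  refine ⟨W₁, ⟨?_, ?_, ?_, ?_, ?_, ?_⟩, ⟨1, 1, one_mem _, by rw [zpow_one, mul_one]⟩, fun h => hwH (hP₁H (hD₁P₁ h))⟩
  · intro d hd
    exact ⟨0, d, hd, by rw [zpow_zero, one_mul]⟩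
  · apply le_antisymm
    · rintro _ ⟨⟨k, d, hd, rfl⟩, hH⟩
      have h1 : w ^ k ∈ H := by
        have := H.mul_mem hH (H.inv_mem (hP₁H (hD₁P₁ hd)))
        rwa [mul_inv_cancel_right] at this
      have h2 : w ^ k ∈ D := by
        rw [← v.WH]
        exact ⟨hwk k, h1⟩
      exact D₁.mul_mem (hDD₁ h2) hd
    · exact le_inf (fun d hd => ⟨0, d, hd, by rw [zpow_zero, one_mul]⟩) (hD₁P₁.trans hP₁H)
  · rintro g hg _ ⟨k, d, hd, rfl⟩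
    refine ⟨k, (w ^ k)⁻¹ * (g * w ^ k * g⁻¹) * (g * d * g⁻¹), D₁.mul_mem (hDD₁ (hgk g hg k)) (hD₁ g hg d hd), by group⟩
  · rintro _ ⟨k, d, hd, rfl⟩ d' hd'
    have h1 : d * d' * d⁻¹ ∈ D₁ := D₁.mul_mem (D₁.mul_mem hd hd') (D₁.inv_mem hd)
    have h2 := hnZ (w ^ k) (Subgroup.zpow_mem_zpowers w k) _ h1
    have e : w ^ k * d * d' * (w ^ k * d)⁻¹ = w ^ k * (d * d' * d⁻¹) * (w ^ k)⁻¹ := by group
    rwa [e]
  · rintro _ ⟨k, d, hd, rfl⟩ _ ⟨l, d', hd', rfl⟩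
    have e : w ^ k * d * (w ^ l * d') * (w ^ k * d)⁻¹ * (w ^ l * d')⁻¹ =
        (w ^ k * d * (w ^ k)⁻¹) * (w ^ (k + l) * (d' * d⁻¹) * (w ^ (k + l))⁻¹) * (w ^ l * d'⁻¹ * (w ^ l)⁻¹) := by
      group
    rw [e]
    exact D₁.mul_mem (D₁.mul_mem (hnZ _ (Subgroup.zpow_mem_zpowers w k) _ hd)
      (hnZ _ (Subgroup.zpow_mem_zpowers w _) _ (D₁.mul_mem hd' (D₁.inv_mem hd))))
      (hnZ _ (Subgroup.zpow_mem_zpowers w l) _ (D₁.inv_mem hd'))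
  · rintro _ ⟨k, d, hd, rfl⟩
    have h1 : ∀ n : ℕ, ∃ d' ∈ D₁, (w ^ k * d) ^ n = (w ^ k) ^ n * d' := by
      intro n
      induction n with
      | zero => exact ⟨1, one_mem _, by simp⟩
      | succ n ih =>
        obtain ⟨d', hd', e⟩ := ih
        refine ⟨(w ^ k)⁻¹ * d' * w ^ k * d, D₁.mul_mem ?_ hd, ?_⟩
        · have := hnZ (w ^ k)⁻¹ (inv_mem (Subgroup.zpow_mem_zpowers w k)) d' hd'
          rwa [inv_inv] at this
        · rw [pow_succ, e, pow_succ]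
          group
    obtain ⟨d', hd', e⟩ := h1 p
    rw [e]
    exact D₁.mul_mem (hDD₁ (v.pow _ (hwk k))) hd'

/-- a vector of `P` fixed by a smaller `P₁` contradicts CLAIM C for `P₁` -/
theorem false_of_le [Finite G] (v : VecB H P D W p) (hPH : P ≤ H) (hP₁ : P₁ ≤ P) (hDD₁ : D ≤ D₁)
    (c : PanelB H R P₁ D₁ M p) {w : G} (hw : w ∈ W) (hwD : w ∉ D) : ¬ P₁ ≤ cj w H := by
  intro hwP
  obtain ⟨W₁, v₁, h1, h2⟩ := exists_cyc v hPH hP₁ hDD₁ (c.DR.trans c.RP) c.Dn hw hwP hwD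
  exact c.claimC v₁ h1 h2 hwP

end Trick

section One

variable {G Y : Type*} [Group G] [Finite G] [Group Y] [Finite Y] {H N M₁ M₂ R : Subgroup G} {k : ℕ}
  (e : N ≃* (Fin k → Y)) {p : ℕ} {I : Type*} {S : PSys Y p I} [Fact p.Prime] [IsSimpleGroup Y]
  (hY : ∃ a b : Y, a * b ≠ b * a)

include hY

/-- **ONE TYPE** -/
theorem one_type [Nonempty I] (h : EP H) (hN : MinN N H) (hR : SylIn H R p)
    (hRN : R ⊓ N = VV e S fun _ => ∅) (hM₁ : M₁ ∈ EP.twoSet H) (hRM₁ : R ≤ M₁) (hM₂ : M₂ ∈ EP.twoSet H)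
    (hRM₂ : R ≤ M₂) {L₁ L₂ : Fin k → Set I} (hL₁ : Inv H e S L₁) (hL₂ : Inv H e S L₂)
    (hL₁' : ∀ i, L₁ i ≠ Set.univ) (hL₂' : ∀ i, L₂ i ≠ Set.univ)
    (hML₁ : M₁ = PH H e S L₁) (hML₂ : M₂ = PH H e S L₂) {i₀ : Fin k}
    (hK : (L₁ i₀)ᶜ ∪ (L₂ i₀)ᶜ ≠ Set.univ)
    (hDQ : DQ H e S fun i => (L₁ i)ᶜ ∪ (L₂ i)ᶜ) : M₁ = M₂ := by
  have hRBH : R ≤ BH H e S := fun r hr => R_le_BH e S hN.nrm hRN (hR.le hr) fun s hs =>
    mul_mem (mul_mem hr hs) (inv_mem hr)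
  set K : Fin k → Set I := fun i => (L₁ i)ᶜ ∪ (L₂ i)ᶜ with hKdef
  have hc₁ := Inv.compl e S hN.nrm hL₁
  have hc₂ := Inv.compl e S hN.nrm hL₂
  have hKi : Inv H e S K := Inv.sup e S hc₁ hc₂
  have hK1 : ∀ i, K i ≠ Set.univ := inv_ne_univ e S hY hN hKi (i := i₀) hK
  obtain ⟨D, Q, hVD, hDP, hDp, hDn, hQp, hQn, hDQ', hQH, hQD⟩ := hDQ
  have hRP : R ≤ PH H e S K := hRBH.trans (BH_le_PH e S hKi)
  have hDR : D ≤ R := le_R_of_normal hR inf_le_left hRP hDP hDp hDn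
  obtain ⟨W, hWQ, hWD, v⟩ := exists_vecB (Fact.out : p.Prime) hDn hQp hQn hDQ' hQH hQD
  -- a vector fixed by `R`
  obtain ⟨w, hw, hwD, hwR⟩ : ∃ w ∈ W, w ∉ D ∧ R ≤ cj w H := by
    obtain ⟨w, hw, hwD⟩ : ∃ w ∈ W, w ∉ D := by
      by_contra hcon
      push Not at hcon
      exact hWD (le_antisymm hcon v.DW)
    have hDw : D ≤ H ⊓ cj w H := by
      refine le_inf (hDR.trans hR.le) ?_
      intro d hd
      rw [mem_cj]
      have h1 := v.WD w⁻¹ (W.inv_mem hw) d hd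
      rw [inv_inv] at h1
      exact hR.le (hDR h1)
    have h2 : H ⊓ cj w H ∈ EP.twoSet H := ⟨w, v.notMem_H hw hwD, rfl⟩
    obtain ⟨a, ha, h3, -⟩ := par e S hY hN hK1 (mx_of_two h hN h2) (hVD.trans hDw)
    have haP : a ∈ PH H e S K := PP_le_PH e S hN.le K ha
    refine ⟨a * w * a⁻¹, v.Wn a haP w hw, ?_, ?_⟩
    · intro h4
      apply hwD
      have := hDn a⁻¹ (inv_mem haP) _ h4
      have e1 : a⁻¹ * (a * w * a⁻¹) * a⁻¹⁻¹ = w := by group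
      rwa [e1] at this
    · rw [PanelB.cj_two (hN.le (PP_le e S K ha))] at h3
      exact (hRBH.trans h3).trans inf_le_right
  have hM' : H ⊓ cj w H ∈ EP.twoSet H := ⟨w, v.notMem_H hw hwD, rfl⟩
  have hRM' : R ≤ H ⊓ cj w H := le_inf hR.le hwR
  -- the argument for one type
  have key : ∀ (M L : _), M ∈ EP.twoSet H → R ≤ M → Inv H e S L → (∀ i, L i ≠ Set.univ) → M = PH H e S L →
      (∀ i, (L i)ᶜ ⊆ K i) → H ⊓ cj w H = M := by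
    intro M L hM hRM hL hL' hML hLK
    have hc := Inv.compl e S hN.nrm hL
    have hLne : L i₀ ≠ ∅ := by
      intro h0
      apply hK1 i₀
      rw [Set.eq_univ_iff_forall]
      intro a
      apply hLK i₀
      rw [h0, Set.compl_empty]
      trivial
    have hP₁P : PH H e S (fun i => (L i)ᶜ) ≤ PH H e S K := (PH_le_iff e S hN.nrm hN.le hKi).2 hLK
    have hVVn : ∀ g ∈ PH H e S (fun i => (L i)ᶜ), ∀ d ∈ VV e S (fun i => (L i)ᶜ), g * d * g⁻¹ ∈ VV e S (fun i => (L i)ᶜ) :=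
      fun g hg d hd => PH_nm_VV e S hg hd
    have hD₁n : ∀ g ∈ PH H e S (fun i => (L i)ᶜ), ∀ d ∈ D ⊔ VV e S (fun i => (L i)ᶜ),
        g * d * g⁻¹ ∈ D ⊔ VV e S (fun i => (L i)ᶜ) := by
      intro g hg d hd
      have h1 : cj g (D ⊔ VV e S (fun i => (L i)ᶜ)) ≤ D ⊔ VV e S (fun i => (L i)ᶜ) := by
        rw [H737.EPO.cj_sup]
        exact sup_le_sup (by rintro _ ⟨x, hx, rfl⟩; exact hDn g (hP₁P hg) x hx)
          (by rintro _ ⟨x, hx, rfl⟩; exact hVVn g hg x hx)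
      exact h1 (conj_mem_cj hd)
    have hVR : VV e S (fun i => (L i)ᶜ) ≤ R := (VV_le_VV e S _).trans (by rw [← hRN]; exact inf_le_left)
    have c : PanelB H R (PH H e S fun i => (L i)ᶜ) (D ⊔ VV e S fun i => (L i)ᶜ) M p :=
      panelB e S hY h hN hR hRN hM hRM hL hL' hML hLne (sup_le hDR hVR) le_sup_right hD₁n
    have h1 : ¬ PH H e S (fun i => (L i)ᶜ) ≤ cj w H := false_of_le v inf_le_left hP₁P le_sup_left c hw hwD
    exact c.uniq _ hM' hRM' fun h2 => h1 (h2.trans inf_le_right)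
  rw [← key M₁ L₁ hM₁ hRM₁ hL₁ hL₁' hML₁ fun i => Set.subset_union_left,
    ← key M₂ L₂ hM₂ hRM₂ hL₂ hL₂' hML₂ fun i => Set.subset_union_right]

/-- **CASE (B) with exactly one type**: relative rank at least two, at least three nodes. -/
theorem own_one [Nonempty I] (hS : Rk S) (h : EP H) (hN : MinN N H) (hR : SylIn H R p)
    (hRN : R ⊓ N = VV e S fun _ => ∅) (hDQ : ∀ J : Fin k → Set I, VV e S J ≠ ⊥ → DQ H e S J)
    {J₀ : Fin k → Set I} (hJ₀ : Inv H e S J₀) {i₀ i₁ : Fin k} (h0 : J₀ i₀ ≠ ∅) (h1 : J₀ i₁ ≠ Set.univ)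
    (hI : ∀ j₁ j₂ : I, ∃ j, j ≠ j₁ ∧ j ≠ j₂) :
    p = 2 ∧ k = 1 ∧ ∃ j : I, (S.V {j}).relIndex (S.V ∅) = 2 ∧ Inv H e S (fun _ => {j}) ∧
      PH H e S (fun _ => {j}ᶜ) ∈ EP.twoSet H ∧ ∀ M ∈ EP.twoSet H, R ≤ M → M = PH H e S (fun _ => {j}ᶜ) := by
  obtain ⟨hp, hk, ⟨M, hM, hRM⟩, hall⟩ := own_B e hY hS h hN hR hRN hDQ hJ₀ h0 h1
  obtain ⟨j, hj2, hj, hMj⟩ := hall M hM hRM
  refine ⟨hp, hk, j, hj2, hj, hMj ▸ hM, fun M' hM' hRM' => ?_⟩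
  obtain ⟨j', -, hj', hMj'⟩ := hall M' hM' hRM'
  have hne : ∀ j : I, ({j}ᶜ : Set I) ≠ Set.univ := fun j h2 => by
    have : j ∈ ({j}ᶜ : Set I) := by rw [h2]; trivial
    exact this rfl
  have hc : ∀ {j : I}, Inv H e S (fun _ => {j}) → Inv H e S (fun _ => {j}ᶜ) := fun hj => Inv.compl e S hN.nrm hj
  have hKu : ({j'}ᶜ : Set I)ᶜ ∪ ({j}ᶜ : Set I)ᶜ ≠ Set.univ := by
    intro h2
    obtain ⟨l, hl, hl'⟩ := hI j j'
    have h3 : l ∈ ({j'}ᶜ : Set I)ᶜ ∪ ({j}ᶜ : Set I)ᶜ := by rw [h2]; trivial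
    simp only [compl_compl] at h3
    rcases h3 with h3 | h3
    · exact hl' h3
    · exact hl h3
  have h2 := one_type e hY h hN hR hRN hM' hRM' hM hRM (hc hj') (hc hj) (fun _ => hne j') (fun _ => hne j) hMj' hMj
    (i₀ := i₀) hKu (hDQ _ (VV_ne_bot e (i := i₀) hKu))
  rw [h2, hMj]

end One

end Cfsg.Agent.H869.EPO
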